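import Cfsg.Agent.Weights.Over

/-!
A faithful representation of `Sp_2n` over its defining field has degree at least `2n`.
-/

namespace Cfsg.Agent.Weights

open Matrix

variable {F : Type*} [Field F] {n : ℕ}

/-- the underlying matrix of a symplectic element supported on one hyperbolic pair -/
def pairMat (i : Fin n) (a b c d : F) : Matrix (Fin n ⊕ Fin n) (Fin n ⊕ Fin n) F :=
  fromBlocks (diagonal (Function.update 1 i a)) (diagonal (Function.update 0 i b))
    (diagonal (Function.update 0 i c)) (diagonal (Function.update 1 i d))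

/-- a symplectic element supported on one hyperbolic pair -/
def pairEl (i : Fin n) (a b c d : F) (h : a * d - b * c = 1) : Matrix.symplecticGroup (Fin n) F :=
  ⟨pairMat i a b c d, by
    rw [SymplecticGroup.mem_iff, pairMat, Matrix.J, fromBlocks_transpose, fromBlocks_multiply,
      fromBlocks_multiply]
    simp only [diagonal_transpose, Matrix.mul_zero, Matrix.mul_one, Matrix.mul_neg, zero_add,
      add_zero, Matrix.neg_mul, diagonal_mul_diagonal, ← diagonal_neg, diagonal_add]
    congr 1 <;>
      · ext j k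
        rcases eq_or_ne j k with rfl | hjk
        · rcases eq_or_ne j i with rfl | hj
          · simp
            first | linear_combination h | linear_combination -h | ring
          · simp [Function.update_of_ne hj]
        · simp [hjk]⟩

theorem pairMat_mul (i : Fin n) (a b c d a' b' c' d' : F) :
    pairMat i a b c d * pairMat i a' b' c' d' =
      pairMat i (a * a' + b * c') (a * b' + b * d') (c * a' + d * c') (c * b' + d * d') := by
  rw [pairMat, pairMat, pairMat, fromBlocks_multiply]
  simp only [diagonal_mul_diagonal, diagonal_add]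
  congr 1 <;>
    · congr 1
      funext j
      rcases eq_or_ne j i with rfl | hj
      · simp
      · simp [Function.update_of_ne hj]

theorem pairMat_comm {i j : Fin n} (hij : i ≠ j) (a b c d a' b' c' d' : F) :
    pairMat i a b c d * pairMat j a' b' c' d' = pairMat j a' b' c' d' * pairMat i a b c d := by
  rw [pairMat, pairMat, fromBlocks_multiply, fromBlocks_multiply]
  simp only [diagonal_mul_diagonal, diagonal_add]
  congr 1 <;>
    · congr 1
      funext l
      rcases eq_or_ne l i with rfl | hl
      · simp [Function.update_of_ne hij, mul_comm]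
      · rcases eq_or_ne l j with rfl | hl'
        · simp [Function.update_of_ne hl, mul_comm]
        · simp [Function.update_of_ne hl, Function.update_of_ne hl']

theorem pairMat_one (i : Fin n) : pairMat i (1 : F) 0 0 1 = 1 := by
  rw [pairMat, ← fromBlocks_one]
  congr 1 <;>
    · ext j k
      rcases eq_or_ne j k with rfl | hjk
      · rcases eq_or_ne j i with rfl | hj
        · simp
        · simp [Function.update_of_ne hj]
      · simp [hjk]

/-- a homomorphism to `GL` weakly inducing eigenvalues -/
def HasEigen {G L V : Type*} [Group G] [Field L] [AddCommGroup V] [Module L V]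
    (R : G →* Module.End L V) (c : Fin n → G) (f : Fin n → L) : Prop :=
  IsWeight (fun i => R (c i)) f

theorem two_mul_le_dim {G L V : Type*} [Group G] [Field L] [IsAlgClosed L] [AddCommGroup V]
    [Module L V] [FiniteDimensional L V] (R : G →* Module.End L V) (c b : Fin n → G) (N : ℕ)
    (hN : (N : L) ≠ 0) (hcN : ∀ i, c i ^ N = 1) (hne : ∀ i, R (c i ^ 2) ≠ 1)
    (hcc : ∀ i j, c i * c j = c j * c i) (hbc : ∀ i j, i ≠ j → c j * b i = b i * c j)
    (hb : ∀ i, c i * b i = b i * (c i)⁻¹) : 2 * n ≤ Module.finrank L V := by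
  classical
  have hinj : ∀ g, Function.Injective (R g) := fun g x y h => by
    have := congrArg (R g⁻¹) h
    rwa [← Module.End.mul_apply, ← Module.End.mul_apply, ← map_mul, inv_mul_cancel, map_one,
      Module.End.one_apply, Module.End.one_apply] at this
  -- flipping one coordinate
  have hflip1 : ∀ (f : Fin n → L), HasEigen R c f → ∀ i,
      HasEigen R c (Function.update f i (f i)⁻¹) := by
    rintro f ⟨v, hv0, hv⟩ i
    have hfi : f i ≠ 0 := by
      intro h
      have h1 := hv i
      rw [h, zero_smul] at h1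
      exact hv0 (hinj _ (h1.trans (map_zero _).symm))
    refine ⟨R (b i) v, fun h => hv0 (hinj _ (h.trans (map_zero _).symm)), fun j => ?_⟩
    dsimp only
    rcases eq_or_ne j i with rfl | hj
    · have h1 : R (c j)⁻¹ v = (f j)⁻¹ • v := by
        apply hinj (c j)
        rw [← Module.End.mul_apply, ← map_mul, mul_inv_cancel, map_one, Module.End.one_apply,
          map_smul, hv, smul_smul, inv_mul_cancel₀ hfi, one_smul]
      rw [Function.update_self, ← Module.End.mul_apply, ← map_mul, hb, map_mul,
        Module.End.mul_apply, h1, map_smul]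
    · rw [Function.update_of_ne hj, ← Module.End.mul_apply, ← map_mul, hbc i j hj.symm, map_mul,
        Module.End.mul_apply]
      rw [show R (c j) v = f j • v from hv j, map_smul]
  have hflip : ∀ (f : Fin n → L), HasEigen R c f → ∀ T : Finset (Fin n),
      HasEigen R c (fun j => if j ∈ T then (f j)⁻¹ else f j) := by
    intro f hf T
    induction T using Finset.induction_on with
    | empty => simpa using hf
    | @insert a T ha ih =>
      convert hflip1 _ ih a using 1
      funext j
      rcases eq_or_ne j a with rfl | hj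
      · simp [ha]
      · simp [Function.update_of_ne hj, hj]
  -- existence
  have hex : ∀ i, ∃ f : Fin n → L, HasEigen R c f ∧ (f i)⁻¹ ≠ f i := by
    intro i
    obtain ⟨χ, ⟨v, hv0, hv⟩, hχ⟩ := exists_weight_ne_one
      (fun a : Fin n ⊕ Fin n => R (Sum.elim c (fun j => c j ^ 2) a))
      (fun a b => by
        rw [← map_mul, ← map_mul]
        congr 1
        cases a <;> cases b <;> simp only [Sum.elim_inl, Sum.elim_inr]
        · exact hcc _ _
        · exact ((Commute.pow_right (hcc _ _ : Commute _ _)) 2).eq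
        · exact ((Commute.pow_left (hcc _ _ : Commute _ _)) 2).eq
        · exact (Commute.pow_pow (hcc _ _ : Commute _ _) 2 2).eq)
      (Sum.inr i) N hN
      (by rw [Sum.elim_inr, ← map_pow, ← pow_mul, mul_comm, pow_mul, hcN, one_pow, map_one])
      (hne i)
    refine ⟨fun j => χ (Sum.inl j), ⟨v, hv0, fun j => hv (Sum.inl j)⟩, fun h => hχ ?_⟩
    dsimp only at h
    have h2 : χ (Sum.inr i) • v = (χ (Sum.inl i) * χ (Sum.inl i)) • v := by
      rw [← hv (Sum.inr i)]
      simp only [Sum.elim_inr, sq, map_mul, Module.End.mul_apply]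
      have h1 : R (c i) v = χ (Sum.inl i) • v := hv (Sum.inl i)
      rw [h1, map_smul, h1, smul_smul]
    rw [smul_left_injective L hv0 h2]
    have h0 : χ (Sum.inl i) ≠ 0 := by
      intro h0
      have h1 : R (c i) v = χ (Sum.inl i) • v := hv (Sum.inl i)
      rw [h0, zero_smul] at h1
      exact hv0 (hinj _ (h1.trans (map_zero _).symm))
    conv_lhs => arg 1; rw [← h]
    exact inv_mul_cancel₀ h0
  choose f hf hfi using hex
  let S : Fin n → Finset (Fin n) := fun i => Finset.univ.filter fun j => (f i j)⁻¹ ≠ f i j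
  let 𝒮 : Finset (Finset (Fin n)) := Finset.univ.image S
  have hrep : ∀ U : 𝒮, ∃ i, S i = U.1 := fun U => by
    obtain ⟨i, -, hi⟩ := Finset.mem_image.1 U.2
    exact ⟨i, hi⟩
  choose r hr using hrep
  let g : (Σ U : 𝒮, {T // T ∈ U.1.powerset}) → (Fin n → L) :=
    fun p j => if j ∈ p.2.1 then (f (r p.1) j)⁻¹ else f (r p.1) j
  have hg : Function.Injective g := by
    rintro ⟨U, T, hT⟩ ⟨U', T', hT'⟩ h
    have hsupp : ∀ (p : Σ U : 𝒮, {T // T ∈ U.1.powerset}) j,
        j ∈ p.1.1 ↔ (g p j)⁻¹ ≠ g p j := by
      intro p j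
      rw [← hr p.1]
      simp only [S, Finset.mem_filter, Finset.mem_univ, true_and, g]
      split <;> simp [eq_comm]
    have hUU : U = U' := Subtype.ext (Finset.ext fun j => by
      rw [hsupp ⟨U, T, hT⟩, hsupp ⟨U', T', hT'⟩, h])
    subst hUU
    refine Sigma.ext rfl (heq_of_eq (Subtype.ext (Finset.ext fun j => ?_)))
    have hj := congrFun h j
    simp only [g] at hj
    by_cases hjU : j ∈ U.1
    · rw [← hr U] at hjU
      simp only [S, Finset.mem_filter, Finset.mem_univ, true_and] at hjU
      by_cases h1 : j ∈ T <;> by_cases h2 : j ∈ T' <;> simp [h1, h2] at hj ⊢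
      · exact hjU hj
      · exact hjU hj.symm
    · exact ⟨fun h1 => absurd (Finset.mem_powerset.1 hT h1) hjU,
        fun h1 => absurd (Finset.mem_powerset.1 hT' h1) hjU⟩
  have hcard := card_weights_le (fun i => R (c i)) g hg (fun p => hflip _ (hf _) p.2.1)
  simp only [Fintype.card_sigma, Fintype.card_coe, Finset.card_powerset] at hcard
  refine le_trans ?_ hcard
  have hcov : (Finset.univ : Finset (Fin n)) ⊆ (Finset.univ : Finset 𝒮).biUnion fun U => U.1 := by
    intro i _
    exact Finset.mem_biUnion.2 ⟨⟨S i, Finset.mem_image_of_mem _ (Finset.mem_univ _)⟩,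
      Finset.mem_univ _, Finset.mem_filter.2 ⟨Finset.mem_univ _, hfi i⟩⟩
  calc 2 * n = 2 * (Finset.univ : Finset (Fin n)).card := by simp
    _ ≤ 2 * ∑ U : 𝒮, U.1.card :=
        Nat.mul_le_mul le_rfl ((Finset.card_le_card hcov).trans Finset.card_biUnion_le)
    _ = ∑ U : 𝒮, 2 * U.1.card := Finset.mul_sum _ _ _
    _ ≤ _ := Finset.sum_le_sum fun U _ => by
        have h1 : ∀ k : ℕ, 2 * k ≤ 2 ^ k := fun k => by
          cases k with
          | zero => simp
          | succ k => rw [pow_succ']; exact Nat.mul_le_mul le_rfl k.lt_two_pow_self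
        exact h1 _

theorem sp_faithful_dim [Fintype F] {d : ℕ} (ρ : ↥(Matrix.symplecticGroup (Fin n) F) →* GL (Fin d) F)
    (hρ : Function.Injective ρ) : 2 * n ≤ d := by
  classical
  obtain ⟨c₀, b₀, N, hN, hdc, hdb, h⟩ : ∃ (c₀ b₀ : Fin 4 → F) (N : ℕ), (N : F) ≠ 0 ∧
      ∃ (hc : c₀ 0 * c₀ 3 - c₀ 1 * c₀ 2 = 1) (hb : b₀ 0 * b₀ 3 - b₀ 1 * b₀ 2 = 1),
      ∀ i : Fin n,
        pairEl i (c₀ 0) (c₀ 1) (c₀ 2) (c₀ 3) hc ^ N = 1 ∧
        pairEl i (c₀ 0) (c₀ 1) (c₀ 2) (c₀ 3) hc ^ 2 ≠ 1 ∧
        pairEl i (c₀ 0) (c₀ 1) (c₀ 2) (c₀ 3) hc * pairEl i (b₀ 0) (b₀ 1) (b₀ 2) (b₀ 3) hb =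
          pairEl i (b₀ 0) (b₀ 1) (b₀ 2) (b₀ 3) hb *
            (pairEl i (c₀ 0) (c₀ 1) (c₀ 2) (c₀ 3) hc)⁻¹ := by
    have hsquare : ∀ (i : Fin n) (x : ↥(Matrix.symplecticGroup (Fin n) F)) (a b c d : F),
        (x : Matrix (Fin n ⊕ Fin n) (Fin n ⊕ Fin n) F) = pairMat i a b c d → x = 1 →
          a = 1 ∧ c = 0 := by
      intro i x a b c d hx h1
      have h2 : pairMat i a b c d = 1 := by rw [← hx, h1]; rfl
      rw [← pairMat_one (F := F) i] at h2
      obtain ⟨h11, -, h21, -⟩ := Matrix.fromBlocks_inj.1 h2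
      have := congrFun (diagonal_injective h11) i
      have := congrFun (diagonal_injective h21) i
      simp_all
    by_cases h2 : (2 : F) = 0
    · have : CharP F 2 := CharTwo.of_one_ne_zero_of_two_eq_zero one_ne_zero h2
      refine ⟨![0, 1, 1, 1], ![0, 1, 1, 0], 3, ?_, ?_, ?_, fun i => ⟨?_, ?_, ?_⟩⟩
      · intro h
        apply one_ne_zero (α := F)
        have : ((3 : ℕ) : F) = 2 + 1 := by norm_num
        rw [this, h2, zero_add] at h
        exact h
      · simp [CharTwo.sub_eq_add]
      · simp [CharTwo.sub_eq_add]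
      · apply Subtype.ext
        rw [pow_succ, sq]
        simp [pairEl, pairMat_mul, pairMat_one, CharTwo.add_self_eq_zero]
      · intro h
        obtain ⟨-, h1⟩ := hsquare i _ _ _ _ _
          (show _ = pairMat i (1 : F) 1 1 0 by
            rw [sq]; simp [pairEl, pairMat_mul, CharTwo.add_self_eq_zero]) h
        exact one_ne_zero h1
      · rw [eq_mul_inv_iff_mul_eq]
        apply Subtype.ext
        simp [pairEl, pairMat_mul, CharTwo.add_self_eq_zero]
    · obtain ⟨x, y, hxy⟩ : ∃ x y : F, x ^ 2 + y ^ 2 = -1 := by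
        obtain ⟨p, hp⟩ := CharP.exists F
        have := hp
        have : NeZero p := ⟨(CharP.char_is_prime F p).ne_zero⟩
        obtain ⟨a, b, h⟩ := CharP.sq_add_sq F p (-1)
        exact ⟨_, _, by simpa using h⟩
      refine ⟨![0, 1, -1, 0], ![x, y, y, -x], 4, ?_, ?_, ?_, fun i => ⟨?_, ?_, ?_⟩⟩
      · intro h
        apply h2
        have : ((4 : ℕ) : F) = 2 * 2 := by norm_num
        rw [this] at h
        exact mul_self_eq_zero.1 h
      · simp
      · simp; linear_combination -hxy
      · apply Subtype.ext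
        rw [pow_succ, pow_succ, sq]
        simp [pairEl, pairMat_mul, pairMat_one]
      · intro h
        obtain ⟨h1, -⟩ := hsquare i _ _ _ _ _
          (show _ = pairMat i (-1 : F) 0 0 (-1) by rw [sq]; simp [pairEl, pairMat_mul]) h
        exact h2 (by linear_combination -h1)
      · rw [eq_mul_inv_iff_mul_eq]
        apply Subtype.ext
        simp [pairEl, pairMat_mul]
  have hle := two_mul_le_dim (closureRep ρ)
    (fun i => pairEl i (c₀ 0) (c₀ 1) (c₀ 2) (c₀ 3) hdc)
    (fun i => pairEl i (b₀ 0) (b₀ 1) (b₀ 2) (b₀ 3) hdb) N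
    (by
      intro h0
      apply hN
      apply (algebraMap F (AlgebraicClosure F)).injective
      rw [map_natCast, map_zero, h0])
    (fun i => (h i).1)
    (fun i h1 => (h i).2.1 (hρ (by
      rw [map_one]; exact (closureRep_eq_one_iff ρ _).1 h1)))
    (fun i j => by
      rcases eq_or_ne i j with rfl | hij
      · rfl
      · exact Subtype.ext (pairMat_comm hij _ _ _ _ _ _ _ _))
    (fun i j hij => Subtype.ext (pairMat_comm hij.symm _ _ _ _ _ _ _ _))
    (fun i => (h i).2.2)
  simpa [Module.finrank_fin_fun] using hle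

end Cfsg.Agent.Weights
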